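import Cfsg.Agent.Lib.Helper9.AschU.Defs
import Cfsg.Agent.Lib.Helper9.AschU.Base
import Cfsg.Agent.Lib.Helper60.Asch.Cls

set_option autoImplicit false

/-! # The Pauli group of order 27 in `GL_3(4)` is normalised by the unitary matrices -/

namespace Cfsg.Agent.Lib.Helper60.X23

open Cfsg Cfsg.Geo Matrix Cfsg.Agent.Lib.Helper13 Cfsg.Agent.Lib.Helper13.Asch
  Cfsg.Agent.Lib.Helper9.AschU

variable {F : Type*} [Field F]

/-- the monomial matrix `X ^ a * (s • diag (1, r, r ^ 2))` -/
def pauli (a : Fin 3) (s r : F) : Matrix (Fin 3) (Fin 3) F :=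
  fun i j => if i = j + a then s * r ^ (j : ℕ) else 0

/-- the Pauli group -/
def InE (y : Matrix (Fin 3) (Fin 3) F) : Prop :=
  ∃ (a : Fin 3) (s r : F), s ^ 3 = 1 ∧ r ^ 3 = 1 ∧ y = pauli a s r

lemma pow_pow_three {r : F} (hr : r ^ 3 = 1) (m : ℕ) : (r ^ m) ^ 3 = 1 := by
  rw [← pow_mul, mul_comm, pow_mul, hr, one_pow]

lemma pow_val_add {r : F} (hr : r ^ 3 = 1) (k a : Fin 3) :
    r ^ ((k + a : Fin 3) : ℕ) = r ^ (k : ℕ) * r ^ (a : ℕ) := by
  rw [← pow_add, pow_eq_pow_mod (k.val + a.val) hr]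
  congr 1

lemma pow_val_affine {r : F} (hr : r ^ 3 = 1) (c b i : Fin 3) :
    r ^ ((c + b * i : Fin 3) : ℕ) = r ^ (c : ℕ) * (r ^ (b : ℕ)) ^ (i : ℕ) := by
  rw [← pow_mul, ← pow_add, pow_eq_pow_mod (c.val + b.val * i.val) hr]
  congr 1
  revert c b i
  decide

lemma pauli_mul {r : F} (hr : r ^ 3 = 1) (a a' : Fin 3) (s s' r' : F) :
    pauli a s r * pauli a' s' r' = pauli (a + a') (s * s' * r ^ (a' : ℕ)) (r * r') := by
  ext i k
  rw [Matrix.mul_apply, Finset.sum_eq_single (k + a')]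
  · simp only [pauli, if_true]
    by_cases h : i = k + a' + a
    · rw [if_pos h, if_pos (by rw [h, add_assoc, add_comm a' a]), pow_val_add hr, mul_pow]
      ring
    · rw [if_neg h, if_neg (by intro h'; apply h; rw [h', add_assoc, add_comm a' a]), zero_mul]
  · intro j _ hj
    simp only [pauli]
    rw [if_neg hj, mul_zero]
  · intro h; exact absurd (Finset.mem_univ _) h

lemma pauli_zero_one_one : pauli 0 (1 : F) 1 = 1 := by
  ext i j
  simp [pauli, Matrix.one_apply]

lemma InE.one : InE (1 : Matrix (Fin 3) (Fin 3) F) :=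
  ⟨0, 1, 1, one_pow _, one_pow _, pauli_zero_one_one.symm⟩

lemma InE.mul {y y' : Matrix (Fin 3) (Fin 3) F} (h : InE y) (h' : InE y') : InE (y * y') := by
  obtain ⟨a, s, r, hs, hr, rfl⟩ := h
  obtain ⟨a', s', r', hs', hr', rfl⟩ := h'
  refine ⟨a + a', s * s' * r ^ (a' : ℕ), r * r', ?_, ?_, pauli_mul hr a a' s s' r'⟩
  · rw [mul_pow, mul_pow, hs, hs', pow_pow_three hr]; simp
  · rw [mul_pow, hr, hr', one_mul]

lemma InE.smul {y : Matrix (Fin 3) (Fin 3) F} (h : InE y) {c : F} (hc : c ^ 3 = 1) :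
    InE (c • y) := by
  obtain ⟨a, s, r, hs, hr, rfl⟩ := h
  refine ⟨a, c * s, r, by rw [mul_pow, hc, hs, one_mul], hr, ?_⟩
  ext i j
  simp only [pauli, Matrix.smul_apply, smul_eq_mul]
  split_ifs <;> ring

lemma pauli_cube {s r : F} (hs : s ^ 3 = 1) (hr : r ^ 3 = 1) (a : Fin 3) :
    pauli a s r * pauli a s r * pauli a s r = 1 := by
  rw [pauli_mul hr, pauli_mul (by rw [mul_pow, hr, one_mul])]
  have h0 : a + a + a = 0 := by revert a; decide
  rw [h0, ← pauli_zero_one_one]
  congr 1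
  · calc s * s * r ^ (a : ℕ) * s * (r * r) ^ (a : ℕ) = s ^ 3 * (r ^ 3) ^ (a : ℕ) := by
          rw [mul_pow, ← pow_mul]; ring
      _ = 1 := by rw [hs, hr]; simp
  · calc r * r * r = r ^ 3 := by ring
      _ = 1 := hr

lemma InE.cube {y : Matrix (Fin 3) (Fin 3) F} (h : InE y) : y * y * y = 1 := by
  obtain ⟨a, s, r, hs, hr, rfl⟩ := h
  exact pauli_cube hs hr a

/-- two elements of the Pauli group commute up to a cube root of unity -/
lemma InE.comm {y y' : Matrix (Fin 3) (Fin 3) F} (h : InE y) (h' : InE y') :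
    ∃ z : F, z ^ 3 = 1 ∧ y * y' = z • (y' * y) := by
  obtain ⟨a, s, r, hs, hr, rfl⟩ := h
  obtain ⟨a', s', r', hs', hr', rfl⟩ := h'
  refine ⟨r ^ (a' : ℕ) * (r' ^ (a : ℕ)) ^ 2, ?_, ?_⟩
  · rw [mul_pow, pow_pow_three hr, pow_pow_three (pow_pow_three hr' _), one_mul]
  · rw [pauli_mul hr, pauli_mul hr']
    ext i j
    simp only [pauli, Matrix.smul_apply, smul_eq_mul, add_comm a' a, mul_comm r' r]
    split_ifs
    · have h3 : (r' ^ (a : ℕ)) ^ 3 = 1 := by rw [← pow_mul, mul_comm, pow_mul, hr', one_pow]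
      calc s * s' * r ^ (a' : ℕ) * (r * r') ^ (j : ℕ)
          = s * s' * r ^ (a' : ℕ) * (r * r') ^ (j : ℕ) * (r' ^ (a : ℕ)) ^ 3 := by rw [h3, mul_one]
        _ = _ := by ring
    · simp

lemma pauli_unitary {s r : F} (hs : s ^ 3 = 1) (hr : r ^ 3 = 1) (a : Fin 3) :
    adj 2 (pauli a s r) * pauli a s r = 1 := by
  ext i k
  rw [Matrix.mul_apply, Finset.sum_eq_single (i + a)]
  · simp only [adj, pauli, if_true, Matrix.one_apply, add_left_inj]
    by_cases h : i = k
    · subst h
      rw [if_pos rfl, if_pos rfl]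
      calc (s * r ^ (i : ℕ)) ^ 2 * (s * r ^ (i : ℕ)) = s ^ 3 * (r ^ (i : ℕ)) ^ 3 := by ring
        _ = 1 := by rw [hs, pow_pow_three hr, one_mul]
    · rw [if_neg h, if_neg h, mul_zero]
  · intro j _ hj
    simp only [adj, pauli]
    rw [if_neg hj]
    simp
  · intro h; exact absurd (Finset.mem_univ _) h

lemma InE.unitary {y : Matrix (Fin 3) (Fin 3) F} (h : InE y) : adj 2 y * y = 1 := by
  obtain ⟨a, s, r, hs, hr, rfl⟩ := h
  exact pauli_unitary hs hr a

lemma perm_affine : ∀ π : Equiv.Perm (Fin 3), ∃ b c : Fin 3, ∀ i, π i = c + b * i := by decide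

lemma perm_derange : ∀ ρ : Equiv.Perm (Fin 3), (∀ i, ρ i ≠ i) →
    ∃ a : Fin 3, a ≠ 0 ∧ ∀ i j, j = ρ i ↔ i = j + a := by decide

lemma geo_zero {u : F} (hu : u ^ 3 = 1) (h1 : u ≠ 1) : 1 + u + u ^ 2 = 0 := by
  have h : (u - 1) * (1 + u + u ^ 2) = 0 := by linear_combination hu
  exact (mul_eq_zero.1 h).resolve_left (sub_ne_zero.2 h1)

lemma conj_entry (g : Matrix (Fin 3) (Fin 3) F) (r : F) (i j : Fin 3) :
    (g * pauli 0 1 r * adj 2 g) i j = ∑ k, g i k * r ^ (k : ℕ) * (g j k) ^ 2 := by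
  rw [Matrix.mul_apply]
  apply Finset.sum_congr rfl
  intro k _
  rw [Matrix.mul_apply, Finset.sum_eq_single k]
  · simp [pauli, adj]
  · intro l _ hl
    simp only [pauli, add_zero]
    rw [if_neg hl, mul_zero]
  · intro h; exact absurd (Finset.mem_univ _) h

section F4

variable [Fintype F]

lemma f4_two (hF : Fintype.card F = 2 ^ 2) : (2 : F) = 0 := by
  apply Cfsg.Agent.Lib.Helper60.Asch.two_eq_zero_of_not_odd
  rw [hF]
  decide

lemma f4_cube (hF : Fintype.card F = 2 ^ 2) {x : F} (hx : x ≠ 0) : x ^ 3 = 1 := by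
  have := FiniteField.pow_card_sub_one_eq_one x hx
  rwa [hF] at this

lemma row_cases (hF : Fintype.card F = 2 ^ 2) (v : Fin 3 → F) (hv : ∑ k, v k * (v k) ^ 2 = 1) :
    (∀ k, v k ≠ 0) ∨ ∃ k0, v k0 ≠ 0 ∧ ∀ k, k ≠ k0 → v k = 0 := by
  have h2 := f4_two hF
  have hc : ∀ k, v k ≠ 0 → v k * (v k) ^ 2 = 1 := fun k hk => by
    rw [← pow_succ']; exact f4_cube hF hk
  rw [Fin.sum_univ_three] at hv
  by_cases h0 : v 0 = 0 <;> by_cases h1 : v 1 = 0 <;> by_cases h2' : v 2 = 0
  · simp [h0, h1, h2'] at hv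
  · exact Or.inr ⟨2, h2', fun k hk => by fin_cases k <;> simp_all⟩
  · exact Or.inr ⟨1, h1, fun k hk => by fin_cases k <;> simp_all⟩
  · exfalso
    rw [h0, hc 1 h1, hc 2 h2'] at hv
    have : (1 : F) = 0 := by linear_combination h2 - hv
    exact one_ne_zero this
  · exact Or.inr ⟨0, h0, fun k hk => by fin_cases k <;> simp_all⟩
  · exfalso
    rw [h1, hc 0 h0, hc 2 h2'] at hv
    have : (1 : F) = 0 := by linear_combination h2 - hv
    exact one_ne_zero this
  · exfalso
    rw [h2', hc 0 h0, hc 1 h1] at hv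
    have : (1 : F) = 0 := by linear_combination h2 - hv
    exact one_ne_zero this
  · exact Or.inl fun k => by fin_cases k <;> assumption

lemma unitary_dichotomy (hF : Fintype.card F = 2 ^ 2) (g : Matrix (Fin 3) (Fin 3) F)
    (hg : g * adj 2 g = 1) :
    (∀ i k, g i k ≠ 0) ∨ ∃ π : Equiv.Perm (Fin 3), ∀ i k, g i k ≠ 0 ↔ k = π i := by
  have hrow : ∀ i j, ∑ k, g i k * (g j k) ^ 2 = if i = j then 1 else 0 := by
    intro i j
    have := congrFun (congrFun hg i) j
    simpa [Matrix.mul_apply, adj, Matrix.one_apply] using this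
  by_cases hall : ∀ i k, g i k ≠ 0
  · exact Or.inl hall
  right
  push Not at hall
  obtain ⟨i0, k1, h01⟩ := hall
  obtain ⟨k0, hk0, hk0'⟩ := (row_cases hF (g i0) (by simpa using hrow i0 i0)).resolve_left
    (fun h => h k1 h01)
  have hsingle : ∀ i, ∃ k, g i k ≠ 0 ∧ ∀ k', k' ≠ k → g i k' = 0 := by
    intro i
    by_cases hi : i = i0
    · subst hi; exact ⟨k0, hk0, hk0'⟩
    have h := hrow i i0
    rw [if_neg hi, Finset.sum_eq_single k0] at h
    · have h3 : g i k0 = 0 := (mul_eq_zero.1 h).resolve_right (pow_ne_zero _ hk0)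
      exact (row_cases hF (g i) (by simpa using hrow i i)).resolve_left (fun h => h k0 h3)
    · intro k _ hk
      rw [hk0' k hk]; simp
    · intro h; exact absurd (Finset.mem_univ _) h
  choose π hπ hπ' using hsingle
  have hinj : Function.Injective π := by
    intro i j hij
    by_contra hne
    have h := hrow i j
    rw [if_neg hne, Finset.sum_eq_single (π i)] at h
    · rcases mul_eq_zero.1 h with h | h
      · exact hπ i h
      · rw [hij] at h
        exact hπ j (pow_eq_zero_iff (by norm_num) |>.1 h)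
    · intro k _ hk
      rw [hπ' i k hk, zero_mul]
    · intro h; exact absurd (Finset.mem_univ _) h
  refine ⟨Equiv.ofBijective π (Finite.injective_iff_bijective.1 hinj), fun i k =>
    ⟨fun h => by_contra (fun hne => h (hπ' i k hne)), fun h => ?_⟩⟩
  rw [h]
  exact hπ i

omit [Fintype F] in
lemma det_pauli_zero {r : F} (hr : r ^ 3 = 1) : (pauli 0 1 r).det = 1 := by
  rw [Matrix.det_fin_three]
  simp [pauli]
  linear_combination hr

/-- a monomial matrix supported on a 3-cycle with determinant one is in the Pauli group -/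
lemma inE_of_support (hF : Fintype.card F = 2 ^ 2) (y : Matrix (Fin 3) (Fin 3) F) (a : Fin 3)
    (ha : a ≠ 0) (hz : ∀ i j, i ≠ j + a → y i j = 0) (hdet : y.det = 1) : InE y := by
  have hprod : y (0 + a) 0 * y (1 + a) 1 * y (2 + a) 2 = 1 := by
    rw [Matrix.det_fin_three] at hdet
    fin_cases a
    · exact absurd rfl ha
    · have z00 := hz 0 0 (by decide)
      have z11 := hz 1 1 (by decide)
      have z22 := hz 2 2 (by decide)
      have z01 := hz 0 1 (by decide)
      have z12 := hz 1 2 (by decide)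
      have z20 := hz 2 0 (by decide)
      rw [z00, z11, z22, z01, z12, z20] at hdet
      show y 1 0 * y 2 1 * y 0 2 = 1
      linear_combination hdet
    · have z00 := hz 0 0 (by decide)
      have z11 := hz 1 1 (by decide)
      have z22 := hz 2 2 (by decide)
      have z10 := hz 1 0 (by decide)
      have z21 := hz 2 1 (by decide)
      have z02 := hz 0 2 (by decide)
      rw [z00, z11, z22, z10, z21, z02] at hdet
      show y 2 0 * y 0 1 * y 1 2 = 1
      linear_combination hdet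
  set d0 := y (0 + a) 0 with hd0
  set d1 := y (1 + a) 1 with hd1
  set d2 := y (2 + a) 2 with hd2
  have n0 : d0 ≠ 0 := by rintro h; rw [h] at hprod; simp at hprod
  have n1 : d1 ≠ 0 := by rintro h; rw [h] at hprod; simp at hprod
  have c0 := f4_cube hF n0
  have c1 := f4_cube hF n1
  refine ⟨a, d0, d1 * d0 ^ 2, c0, ?_, ?_⟩
  · rw [mul_pow, c1, pow_pow_three c0, one_mul]
  · ext i j
    simp only [pauli]
    by_cases h : i = j + a
    · rw [if_pos h, h]
      fin_cases j
      · show d0 = d0 * (d1 * d0 ^ 2) ^ 0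
        simp
      · show d1 = d0 * (d1 * d0 ^ 2) ^ 1
        linear_combination (-d1) * c0
      · show d2 = d0 * (d1 * d0 ^ 2) ^ 2
        linear_combination (d0 ^ 2 * d1 ^ 2) * hprod + (-(d2 * d1 ^ 3) - d0 ^ 2 * d1 ^ 2) * c0
          - d2 * c1
    · rw [if_neg h, hz i j h]

lemma conj_diag (hF : Fintype.card F = 2 ^ 2) (g : Matrix (Fin 3) (Fin 3) F)
    (hg : g * adj 2 g = 1) {r : F} (hr : r ^ 3 = 1) : InE (g * pauli 0 1 r * adj 2 g) := by
  by_cases hr1 : r = 1
  · subst hr1
    rw [pauli_zero_one_one, mul_one, hg]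
    exact InE.one
  have hr2 := geo_zero hr hr1
  have hg' : adj 2 g * g = 1 := mul_eq_one_comm.1 hg
  set y := g * pauli 0 1 r * adj 2 g with hy
  rcases unitary_dichotomy hF g hg with hall | ⟨π, hπ⟩
  · have hD : pauli 0 1 r * adj 2 (pauli 0 1 r) = 1 :=
      mul_eq_one_comm.1 (pauli_unitary (one_pow 3) hr 0)
    have hyu : y * adj 2 y = 1 := by
      rw [hy, adj_mul hF, adj_mul hF, adj_adj hF]
      calc g * pauli 0 1 r * adj 2 g * (g * (adj 2 (pauli 0 1 r) * adj 2 g))
          = g * (pauli 0 1 r * (adj 2 g * g) * adj 2 (pauli 0 1 r)) * adj 2 g := by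
            simp only [Matrix.mul_assoc]
        _ = 1 := by rw [hg', Matrix.mul_one, hD, Matrix.mul_one, hg]
    have hdiag : ∀ i, y i i = 0 := by
      intro i
      rw [hy, conj_entry]
      have : ∀ k, g i k * r ^ (k : ℕ) * (g i k) ^ 2 = r ^ (k : ℕ) := by
        intro k
        have := f4_cube hF (hall i k)
        linear_combination (r ^ (k : ℕ)) * this
      simp_rw [this]
      rw [Fin.sum_univ_three]
      simpa using hr2
    rcases unitary_dichotomy hF y hyu with h | ⟨ρ, hρ⟩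
    · exact absurd (hdiag 0) (h 0 0)
    have hfix : ∀ i, ρ i ≠ i := fun i h => (hρ i i).2 h.symm (hdiag i)
    obtain ⟨a, ha0, ha⟩ := perm_derange ρ hfix
    have hz : ∀ i j, i ≠ j + a → y i j = 0 := by
      intro i j h
      by_contra hne
      exact h ((ha i j).1 ((hρ i j).1 hne))
    have hdet : y.det = 1 := by
      rw [hy, Matrix.det_mul, Matrix.det_mul, det_pauli_zero hr, mul_one, ← Matrix.det_mul, hg,
        Matrix.det_one]
    exact inE_of_support hF y a ha0 hz hdet
  · have hy' : ∀ i j, y i j = if i = j then r ^ ((π i : Fin 3) : ℕ) else 0 := by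
      intro i j
      rw [hy, conj_entry, Finset.sum_eq_single (π i)]
      · by_cases hij : i = j
        · subst hij
          rw [if_pos rfl]
          have := f4_cube hF ((hπ i (π i)).2 rfl)
          linear_combination (r ^ ((π i : Fin 3) : ℕ)) * this
        · rw [if_neg hij]
          have : g j (π i) = 0 := by
            by_contra hne
            exact hij (π.injective ((hπ j (π i)).1 hne))
          rw [this]; simp
      · intro k _ hk
        have : g i k = 0 := by
          by_contra hne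
          exact hk ((hπ i k).1 hne)
        rw [this]; simp
      · intro h; exact absurd (Finset.mem_univ _) h
    obtain ⟨b, c, hbc⟩ := perm_affine π
    refine ⟨0, r ^ (c : ℕ), r ^ (b : ℕ), pow_pow_three hr _, pow_pow_three hr _, ?_⟩
    ext i j
    rw [hy']
    simp only [pauli, add_zero]
    by_cases hij : i = j
    · subst hij
      rw [if_pos rfl, if_pos rfl, hbc, pow_val_affine hr]
    · rw [if_neg hij, if_neg hij]

lemma exists_w (hF : Fintype.card F = 2 ^ 2) : ∃ w : F, w ≠ 1 ∧ w ^ 3 = 1 := by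
  classical
  have : (({0, 1} : Finset F)ᶜ).Nonempty := by
    rw [← Finset.card_pos, Finset.card_compl, hF]
    have := Finset.card_le_two (a := (0 : F)) (b := 1)
    omega
  obtain ⟨x, hx⟩ := this
  simp only [Finset.mem_compl, Finset.mem_insert, Finset.mem_singleton, not_or] at hx
  exact ⟨x, hx.2, f4_cube hF hx.1⟩

lemma geo_sum (hF : Fintype.card F = 2 ^ 2) {w : F} (hw1 : w ≠ 1) (hw : w ^ 3 = 1) (m : ℕ) :
    ∑ k : Fin 3, (w ^ m) ^ (k : ℕ) = if 3 ∣ m then 1 else 0 := by
  have h2 := f4_two hF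
  rw [Fin.sum_univ_three]
  have ho : orderOf w = 3 := orderOf_eq_prime hw hw1
  split_ifs with h
  · have : w ^ m = 1 := by rw [← orderOf_dvd_iff_pow_eq_one, ho]; exact h
    rw [this]
    simp
    linear_combination h2
  · have : w ^ m ≠ 1 := by rw [Ne, ← orderOf_dvd_iff_pow_eq_one, ho]; exact h
    simpa using geo_zero (pow_pow_three hw m) this

/-- the Fourier matrix -/
def fourier (w : F) : Matrix (Fin 3) (Fin 3) F := fun i k => w ^ ((i : ℕ) * (k : ℕ))

lemma fourier_unitary (hF : Fintype.card F = 2 ^ 2) {w : F} (hw1 : w ≠ 1) (hw : w ^ 3 = 1) :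
    fourier w * adj 2 (fourier w) = 1 := by
  ext i j
  rw [Matrix.mul_apply]
  have : ∀ k : Fin 3, fourier w i k * adj 2 (fourier w) k j =
      (w ^ ((i : ℕ) + 2 * (j : ℕ))) ^ (k : ℕ) := by
    intro k
    simp only [fourier, adj]
    rw [← pow_mul, ← pow_mul, ← pow_add]
    congr 1
    ring
  simp_rw [this]
  rw [geo_sum hF hw1 hw, Matrix.one_apply]
  have hd : ∀ i j : Fin 3, (3 ∣ (i : ℕ) + 2 * (j : ℕ)) ↔ i = j := by decide
  simp only [hd]

lemma fourier_conj (hF : Fintype.card F = 2 ^ 2) {w : F} (hw1 : w ≠ 1) (hw : w ^ 3 = 1) :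
    fourier w * pauli 0 1 w * adj 2 (fourier w) = pauli 2 1 1 := by
  ext i j
  rw [conj_entry]
  have : ∀ k : Fin 3, fourier w i k * w ^ (k : ℕ) * (fourier w j k) ^ 2 =
      (w ^ ((i : ℕ) + 1 + 2 * (j : ℕ))) ^ (k : ℕ) := by
    intro k
    simp only [fourier]
    rw [← pow_mul, ← pow_mul, ← pow_add, ← pow_add]
    congr 1
    ring
  simp_rw [this]
  rw [geo_sum hF hw1 hw]
  have hd : ∀ i j : Fin 3, (3 ∣ (i : ℕ) + 1 + 2 * (j : ℕ)) ↔ i = j + 2 := by decide
  simp only [pauli, one_pow, mul_one, hd]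

/-- **N3**: the unitary matrices normalise the Pauli group -/
theorem InE.conj (hF : Fintype.card F = 2 ^ 2) {g : Matrix (Fin 3) (Fin 3) F}
    (hg : adj 2 g * g = 1) {y : Matrix (Fin 3) (Fin 3) F} (hy : InE y) :
    InE (g * y * adj 2 g) := by
  obtain ⟨a, s, r, hs, hr, rfl⟩ := hy
  have hg' : g * adj 2 g = 1 := mul_eq_one_comm.1 hg
  have hmul : ∀ u v, g * (u * v) * adj 2 g = (g * u * adj 2 g) * (g * v * adj 2 g) := by
    intro u v
    calc g * (u * v) * adj 2 g = g * u * 1 * v * adj 2 g := by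
          simp only [Matrix.mul_one, Matrix.mul_assoc]
      _ = _ := by rw [← hg]; simp only [Matrix.mul_assoc]
  obtain ⟨w, hw1, hw⟩ := exists_w hF
  have hX2 : InE (g * pauli 2 1 1 * adj 2 g) := by
    rw [← fourier_conj hF hw1 hw]
    have e : g * (fourier w * pauli 0 1 w * adj 2 (fourier w)) * adj 2 g =
        (g * fourier w) * pauli 0 1 w * adj 2 (g * fourier w) := by
      rw [adj_mul hF]
      simp only [Matrix.mul_assoc]
    rw [e]
    apply conj_diag hF _ _ hw
    rw [adj_mul hF]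
    calc g * fourier w * (adj 2 (fourier w) * adj 2 g)
        = g * (fourier w * adj 2 (fourier w)) * adj 2 g := by simp only [Matrix.mul_assoc]
      _ = 1 := by rw [fourier_unitary hF hw1 hw, Matrix.mul_one, hg']
  have hX : ∀ a : Fin 3, InE (g * pauli a 1 1 * adj 2 g) := by
    intro a
    fin_cases a
    · show InE (g * pauli 0 1 1 * adj 2 g)
      rw [pauli_zero_one_one, Matrix.mul_one, hg']
      exact InE.one
    · show InE (g * pauli 1 1 1 * adj 2 g)
      have e : (pauli 1 1 1 : Matrix (Fin 3) (Fin 3) F) = pauli 2 1 1 * pauli 2 1 1 := by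
        rw [pauli_mul (one_pow 3)]
        simp
      rw [e, hmul]
      exact hX2.mul hX2
    · exact hX2
  have e : pauli a s r = pauli a 1 1 * (s • pauli 0 1 r) := by
    have e1 : s • pauli 0 1 r = pauli 0 s r := by
      ext i j
      simp only [pauli, Matrix.smul_apply, smul_eq_mul]
      split_ifs <;> ring
    rw [e1, pauli_mul (one_pow 3)]
    simp
  rw [e, hmul]
  refine (hX a).mul ?_
  rw [Matrix.mul_smul, Matrix.smul_mul]
  exact (conj_diag hF g hg' hr).smul hs

end F4

end Cfsg.Agent.Lib.Helper60.X23
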