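import Cfsg.Agent.Lib.Helper60.X23.Pauli
import Cfsg.Agent.Lib.Helper9.AschU.UC5
import Cfsg.Agent.Lib.Helper96.Asch.L0c

set_option autoImplicit false

/-! # Groups of Pauli type in `GU_n(2)` give class 6 -/

namespace Cfsg.Agent.Lib.Helper60.X23

open Cfsg Cfsg.Geo Matrix Cfsg.Agent.Lib.Helper13 Cfsg.Agent.Lib.Helper13.Asch
  Cfsg.Agent.Lib.Helper5.SUAsch Cfsg.Agent.Lib.Helper9.AschU
open scoped MatrixGroups

section alg

variable {F : Type*} [Field F] {A : Type*} [Ring A] [Algebra F A]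

/-- `1 + u b + l u² b²` -/
def tw (l u : F) (B : A) : A := 1 + u • B + (l * u * u) • (B * B)

lemma cube_of_rel {l : F} (hl : l * l + l + 1 = 0) : l * l * l = 1 := by
  linear_combination (l - 1) * hl

lemma tw_mul_inv {l : F} (h2 : (2 : F) = 0) (hl : l * l + l + 1 = 0) {B : A} (hB : B * B * B = 1) :
    tw l 1 B * (1 + (l * l) • B + B * B) = 1 := by
  have hBC : B * (B * B) = 1 := by rw [← mul_assoc]; exact hB
  have hCC : B * B * (B * B) = B := by rw [← mul_assoc, hB, one_mul]
  have h3 := cube_of_rel hl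
  calc tw l 1 B * (1 + (l * l) • B + B * B)
      = (2 + l * l * l) • (1 : A) + (l * l + l + 1) • B + (l * l + l + 1) • (B * B) := by
        simp only [tw, add_mul, mul_add, one_mul, mul_one, smul_mul_assoc, mul_smul_comm,
          hBC, hB, hCC, one_smul]
        module
    _ = 1 := by rw [hl, h2, h3]; simp

lemma tw_l {l : F} (hl : l * l + l + 1 = 0) {B : A} (hB : B * B * B = 1) :
    tw l l B = B * B * tw l 1 B := by
  have hCC : B * B * (B * B) = B := by rw [← mul_assoc, hB, one_mul]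
  have h3 := cube_of_rel hl
  simp only [tw, mul_add, mul_one, mul_smul_comm, hB, hCC, h3, one_smul]
  abel

lemma tw_ll {l : F} (hl : l * l + l + 1 = 0) {B : A} (hB : B * B * B = 1) :
    tw l (l * l) B = ((l * l) • B) * tw l 1 B := by
  have hBC : B * (B * B) = 1 := by rw [← mul_assoc]; exact hB
  have h3 := cube_of_rel hl
  have h5 : l * (l * l) * (l * l) = l * l := by linear_combination (l * l) * h3
  simp only [tw, mul_add, mul_one, mul_smul_comm, smul_mul_assoc, hBC, h5, one_smul, smul_smul]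
  rw [show l * (l * l) = 1 by linear_combination h3, one_smul]
  abel

lemma tw_comm {l u : F} {B X : A} (h : B * X = u • (X * B)) : tw l 1 B * X = X * tw l u B := by
  have hC : B * B * X = (u * u) • (X * (B * B)) := by
    rw [mul_assoc, h, mul_smul_comm, ← mul_assoc, h, smul_mul_assoc, smul_smul, mul_assoc]
  simp only [tw, add_mul, mul_add, one_mul, mul_one, smul_mul_assoc, mul_smul_comm, h, hC, smul_smul,
    one_smul]
  congr 2
  ring

lemma root_cases {l u : F} (hl : l * l + l + 1 = 0) (hu : u ^ 3 = 1) :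
    u = 1 ∨ u = l ∨ u = l * l := by
  have h3 := cube_of_rel hl
  have h : (u - 1) * ((u - l) * (u - l * l)) = 0 := by
    linear_combination hu + (u - u ^ 2) * hl + (u - 1) * h3
  rcases mul_eq_zero.1 h with h | h
  · exact Or.inl (sub_eq_zero.1 h)
  rcases mul_eq_zero.1 h with h | h
  · exact Or.inr (Or.inl (sub_eq_zero.1 h))
  · exact Or.inr (Or.inr (sub_eq_zero.1 h))

end alg

lemma mem_normalizer_of_finite {G : Type*} [Group G] (R : Subgroup G) [Finite R] (g : G)
    (h : ∀ x ∈ R, g * x * g⁻¹ ∈ R) : g ∈ Subgroup.normalizer (R : Set G) := by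
  rw [Subgroup.mem_normalizer_iff]
  intro x
  refine ⟨h x, fun hx => ?_⟩
  let f : R → R := fun y => ⟨g * y * g⁻¹, h y y.2⟩
  have hinj : Function.Injective f := by
    intro y z hyz
    have := congrArg Subtype.val hyz
    apply Subtype.ext
    simpa [f] using this
  obtain ⟨y, hy⟩ := Finite.surjective_of_injective hinj ⟨_, hx⟩
  have h1 : g * y * g⁻¹ = g * x * g⁻¹ := congrArg Subtype.val hy
  have h2 : (y : G) = x := by simpa using h1
  rw [← h2]
  exact y.2

variable {F : Type*} [Field F] [Fintype F] {n : ℕ}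

theorem UCls.anti {q : ℕ} {H H' : Subgroup (GL (Fin n) F)} (hle : H ≤ H') (h : UCls n q H') :
    UCls n q H := by
  rcases h with ⟨W, h0, h1, h⟩ | ⟨W, h0, h1, h2, h⟩ | ⟨t, k, D, hD, h⟩ | ⟨k, D, hk, hD, hs, h⟩ |
    ⟨F₀, r, P, hr, ho, hc, hf, h⟩ | ⟨F₀, P, ho, hc, hf, h⟩ | ⟨F₀, P, ζ, he, hc, h0, h1, hf, ha, h⟩ |
    ⟨r, R, p, e, k, h1, h2, h3, h4, h5, h6, h7, h⟩ | ⟨r, K, hr, ho, hK, ha, h⟩ |
    ⟨a, b, e, P, f₁, f₂, ha, hb, h1, h2, h3, h⟩ | ⟨k, t, e, P, f₁, hk, ht, hx, h1, h2, h⟩
  · exact Or.inl ⟨W, h0, h1, hle.trans h⟩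
  · exact Or.inr (Or.inl ⟨W, h0, h1, h2, hle.trans h⟩)
  · exact Or.inr (Or.inr (Or.inl ⟨t, k, D, hD, hle.trans h⟩))
  · exact Or.inr (Or.inr (Or.inr (Or.inl ⟨k, D, hk, hD, hs, hle.trans h⟩)))
  · exact Or.inr (Or.inr (Or.inr (Or.inr (Or.inl ⟨F₀, r, P, hr, ho, hc, hf, hle.trans h⟩))))
  · exact Or.inr (Or.inr (Or.inr (Or.inr (Or.inr (Or.inl ⟨F₀, P, ho, hc, hf, hle.trans h⟩)))))
  · exact Or.inr (Or.inr (Or.inr (Or.inr (Or.inr (Or.inr
      (Or.inl ⟨F₀, P, ζ, he, hc, h0, h1, hf, ha, hle.trans h⟩))))))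
  · exact Or.inr (Or.inr (Or.inr (Or.inr (Or.inr (Or.inr (Or.inr
      (Or.inl ⟨r, R, p, e, k, h1, h2, h3, h4, h5, h6, h7, hle.trans h⟩)))))))
  · exact Or.inr (Or.inr (Or.inr (Or.inr (Or.inr (Or.inr (Or.inr (Or.inr
      (Or.inl ⟨r, K, hr, ho, hK, ha, hle.trans h⟩))))))))
  · exact Or.inr (Or.inr (Or.inr (Or.inr (Or.inr (Or.inr (Or.inr (Or.inr (Or.inr
      (Or.inl ⟨a, b, e, P, f₁, f₂, ha, hb, h1, h2, h3, hle.trans h⟩)))))))))
  · exact Or.inr (Or.inr (Or.inr (Or.inr (Or.inr (Or.inr (Or.inr (Or.inr (Or.inr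
      (Or.inr ⟨k, t, e, P, f₁, hk, ht, hx, h1, h2, hle.trans h⟩)))))))))

omit [Fintype F] in
lemma val_cube {b : GL (Fin n) F} (hb : b ^ 3 = 1) :
    (b : Matrix (Fin n) (Fin n) F) * (b : Matrix (Fin n) (Fin n) F) *
      (b : Matrix (Fin n) (Fin n) F) = 1 := by
  have := congrArg Units.val hb
  simpa [pow_succ] using this

/-- the element `1 + b + l b²` -/
def gbG (l : F) (h2 : (2 : F) = 0) (hl : l * l + l + 1 = 0) (b : GL (Fin n) F) (hb : b ^ 3 = 1) :
    GL (Fin n) F :=
  ⟨tw l 1 (b : Matrix (Fin n) (Fin n) F),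
    1 + (l * l) • (b : Matrix (Fin n) (Fin n) F) +
      (b : Matrix (Fin n) (Fin n) F) * (b : Matrix (Fin n) (Fin n) F),
    tw_mul_inv h2 hl (val_cube hb), mul_eq_one_comm.1 (tw_mul_inv h2 hl (val_cube hb))⟩

lemma gbG_mem_GU (hF : Fintype.card F = 2 ^ 2) (l : F) (h2 : (2 : F) = 0)
    (hl : l * l + l + 1 = 0) (b : GL (Fin n) F) (hb : b ^ 3 = 1) (hbU : b ∈ GU n F 2) :
    gbG l h2 hl b hb ∈ GU n F 2 := by
  rw [mem_GU_iff_adj hF]
  set B := (b : Matrix (Fin n) (Fin n) F) with hB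
  have hB3 := val_cube hb
  have hinv : adj 2 B = B * B := by
    rw [hB, adj_eq_inv hF hbU]
    have : b⁻¹ = b * b := by
      apply inv_eq_of_mul_eq_one_right
      rw [← mul_assoc, ← pow_two, ← pow_succ]
      exact hb
    rw [this, Units.val_mul]
  have hCC : B * B * (B * B) = B := by rw [← mul_assoc, hB3, one_mul]
  have e : adj 2 (tw l 1 B) = 1 + (l * l) • B + B * B := by
    simp only [tw, adj_add hF, adj_smul, adj_mul hF, adj_one hF, hinv, hCC]
    simp only [one_smul, mul_one, pow_two]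
    abel
  show adj 2 (tw l 1 B) * tw l 1 B = 1
  rw [e]
  exact mul_eq_one_comm.1 (tw_mul_inv h2 hl hB3)

lemma gbG_conj (l : F) (h2 : (2 : F) = 0) (hl : l * l + l + 1 = 0) (b : GL (Fin n) F)
    (hb : b ^ 3 = 1) (x c : GL (Fin n) F) (u : F)
    (hu : (b : Matrix (Fin n) (Fin n) F) * (x : Matrix (Fin n) (Fin n) F) =
      u • ((x : Matrix (Fin n) (Fin n) F) * (b : Matrix (Fin n) (Fin n) F)))
    (hc : tw l u (b : Matrix (Fin n) (Fin n) F) =
      (c : Matrix (Fin n) (Fin n) F) * tw l 1 (b : Matrix (Fin n) (Fin n) F)) :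
    gbG l h2 hl b hb * x * (gbG l h2 hl b hb)⁻¹ = x * c := by
  have h : gbG l h2 hl b hb * x = x * c * gbG l h2 hl b hb := by
    apply Units.ext
    show tw l 1 (b : Matrix (Fin n) (Fin n) F) * (x : Matrix (Fin n) (Fin n) F) =
      (x : Matrix (Fin n) (Fin n) F) * (c : Matrix (Fin n) (Fin n) F) *
        tw l 1 (b : Matrix (Fin n) (Fin n) F)
    rw [tw_comm hu, hc, mul_assoc]
  rw [h, mul_inv_cancel_right]

/-- **MIN**: a subgroup of `GU_n(2)` normalising a group of Pauli type lies in class 6 -/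
theorem ucls_of_pauli (hF : Fintype.card F = 2 ^ 2) (hn : 2 ≤ n) {H R : Subgroup (GL (Fin n) F)}
    (hH : H ≤ GU n F 2) (hR : R ≤ GU n F 2) (hnrm : Nrm H R)
    (hcomm : ∀ x ∈ R, ∀ y ∈ R, x * y * x⁻¹ * y⁻¹ ∈ scalars (Fin n) F) (henv : env R = ⊤)
    (hexp : ∀ x ∈ R, x ^ 3 = 1) (hsc : ∀ g ∈ scalars (Fin n) F, g ^ 3 = 1 → g ∈ R) :
    UCls n 2 H := by
  classical
  have h2 := f4_two hF
  obtain ⟨l, hl1, hl3⟩ := exists_w hF
  have hl : l * l + l + 1 = 0 := by
    have := geo_zero hl3 hl1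
    linear_combination this
  set H' : Subgroup (GL (Fin n) F) := subgroupNormalizer R ⊓ GU n F 2 with hH'
  have hHH' : H ≤ H' := le_inf (Cfsg.Agent.Lib.Helper91.Asch.le_subgroupNormalizer hnrm) hH
  apply UCls.anti hHH'
  have hsim : R ≤ similarityGroup (hermForm n F 2) := by
    intro x hx
    exact ⟨1, fun u v => by rw [Units.val_one, one_mul]; exact hR hx u v⟩
  -- the scalar `l²`
  have hll0 : l * l ≠ 0 := by
    intro h
    have := cube_of_rel hl
    rw [h, zero_mul] at this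
    exact zero_ne_one this
  obtain ⟨z, hz⟩ : ∃ z : GL (Fin n) F, (z : Matrix (Fin n) (Fin n) F) = (l * l) • 1 := by
    refine ⟨⟨(l * l) • 1, l • 1, ?_, ?_⟩, rfl⟩
    · rw [smul_mul_smul_comm, mul_one, cube_of_rel hl, one_smul]
    · rw [smul_mul_smul_comm, mul_one, ← mul_assoc, cube_of_rel hl, one_smul]
  have hzs : z ∈ scalars (Fin n) F := (mem_scalars_iff z).2 ⟨Units.mk0 _ hll0, hz⟩
  have hzR : z ∈ R := by
    apply hsc z hzs
    apply Units.ext
    rw [Units.val_pow_eq_pow_val, hz, smul_pow, one_pow, Units.val_one]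
    have : (l * l) ^ 3 = 1 := by
      have := cube_of_rel hl
      calc (l * l) ^ 3 = (l * l * l) ^ 2 := by ring
        _ = 1 := by rw [this, one_pow]
    rw [this, one_smul]
  -- the relation between two elements of `R`
  have hrel : ∀ b ∈ R, ∀ x ∈ R, ∃ u : F, u ^ 3 = 1 ∧
      (b : Matrix (Fin n) (Fin n) F) * (x : Matrix (Fin n) (Fin n) F) =
        u • ((x : Matrix (Fin n) (Fin n) F) * (b : Matrix (Fin n) (Fin n) F)) := by
    intro b hb x hx
    obtain ⟨u, hu⟩ := (mem_scalars_iff _).1 (hcomm b hb x hx)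
    refine ⟨u, f4_cube hF u.ne_zero, ?_⟩
    have e : b * x = (b * x * b⁻¹ * x⁻¹) * (x * b) := by group
    have e2 := congrArg Units.val e
    rw [Units.val_mul, Units.val_mul (b * x * b⁻¹ * x⁻¹), hu, Units.val_mul, smul_mul_assoc,
      one_mul] at e2
    exact e2
  -- conjugation by `g_b`
  have hconj : ∀ b (hb : b ∈ R), ∀ x ∈ R,
      (x * b = b * x ∧ gbG l h2 hl b (hexp b hb) * x * (gbG l h2 hl b (hexp b hb))⁻¹ = x) ∨
      gbG l h2 hl b (hexp b hb) * x * (gbG l h2 hl b (hexp b hb))⁻¹ = x * (b * b) ∨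
      gbG l h2 hl b (hexp b hb) * x * (gbG l h2 hl b (hexp b hb))⁻¹ = x * (z * b) := by
    intro b hb x hx
    obtain ⟨u, hu3, hu⟩ := hrel b hb x hx
    have hB3 := val_cube (hexp b hb)
    rcases root_cases hl hu3 with h | h | h <;> rw [h] at hu
    · left
      refine ⟨?_, ?_⟩
      · apply Units.ext
        rw [Units.val_mul, Units.val_mul, hu, one_smul]
      · have := gbG_conj l h2 hl b (hexp b hb) x 1 1 hu (by rw [Units.val_one, one_mul])
        rwa [mul_one] at this
    · right; left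
      exact gbG_conj l h2 hl b (hexp b hb) x (b * b) l hu (by rw [Units.val_mul]; exact tw_l hl hB3)
    · right; right
      refine gbG_conj l h2 hl b (hexp b hb) x (z * b) (l * l) hu ?_
      rw [Units.val_mul, hz, smul_mul_assoc, one_mul]
      exact tw_ll hl hB3
  have hgH' : ∀ b (hb : b ∈ R), gbG l h2 hl b (hexp b hb) ∈ H' := by
    intro b hb
    refine ⟨?_, gbG_mem_GU hF l h2 hl b (hexp b hb) (hR hb)⟩
    apply mem_normalizer_of_finite
    intro x hx
    rcases hconj b hb x hx with ⟨-, h⟩ | h | h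
    · rw [h]; exact hx
    · rw [h]; exact R.mul_mem hx (R.mul_mem hb hb)
    · rw [h]; exact R.mul_mem hx (R.mul_mem hzR hb)
  apply uc6_of_RData (r := 3) hF hn inf_le_right ?_ hsim
  refine ⟨Nat.prime_three, ?_, hcomm, henv, fun x hx => hexp x hx, fun g hg h => hsc g hg h, ?_⟩
  · intro h hh x hx
    exact (Subgroup.mem_normalizer_iff.1 hh.1 x).1 hx
  · intro M hM1 hMR hMn
    by_cases hMs : M ≤ scalars (Fin n) F
    · left
      exact le_antisymm (le_inf hMR hMs) hM1
    right
    apply le_antisymm hMR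
    obtain ⟨a, haM, has⟩ := SetLike.not_le_iff_exists.1 hMs
    have haR := hMR haM
    have hzM : z ∈ M := hM1 ⟨hzR, hzs⟩
    have key : ∀ b ∈ R, a * b ≠ b * a → b ∈ M := by
      intro b hb hne
      have hc := hMn _ (hgH' b hb) a haM
      rcases hconj b hb a haR with ⟨h, -⟩ | h | h
      · exact absurd h hne
      · rw [h] at hc
        have h1 : b * b ∈ M := by
          have := M.mul_mem (M.inv_mem haM) hc
          rwa [inv_mul_cancel_left] at this
        have h3 : b = (b * b) * (b * b) := by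
          have := hexp b hb
          calc b = b ^ 3 * b := by rw [this, one_mul]
            _ = _ := by simp only [pow_succ, pow_zero, one_mul, mul_assoc]
        rw [h3]
        exact M.mul_mem h1 h1
      · rw [h] at hc
        have h1 : z * b ∈ M := by
          have := M.mul_mem (M.inv_mem haM) hc
          rwa [inv_mul_cancel_left] at this
        have := M.mul_mem (M.inv_mem hzM) h1
        rwa [inv_mul_cancel_left] at this
    intro c hc
    by_cases hca : a * c = c * a
    · obtain ⟨b, hb, hne⟩ : ∃ b ∈ R, a * b ≠ b * a := by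
        by_contra hall
        push Not at hall
        apply has
        obtain ⟨d, hd⟩ := Cfsg.Agent.Lib.Helper96.Asch.scalar_of_commute henv
          (a : Matrix (Fin n) (Fin n) F) (fun x hx => by
            rw [← Units.val_mul, ← Units.val_mul, hall x hx])
        have hd0 : d ≠ 0 := by
          rintro rfl
          rw [zero_smul] at hd
          have h1 : (a : Matrix (Fin n) (Fin n) F) * ((a⁻¹ : GL (Fin n) F) :
              Matrix (Fin n) (Fin n) F) = 1 := by
            rw [← Units.val_mul, mul_inv_cancel, Units.val_one]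
          rw [hd, zero_mul] at h1
          have := congrFun (congrFun h1 ⟨0, by omega⟩) ⟨0, by omega⟩
          simp at this
        exact (mem_scalars_iff a).2 ⟨Units.mk0 d hd0, hd⟩
      have h1 := key b hb hne
      have h3 := key (c * b) (R.mul_mem hc hb) (by
        intro h
        apply hne
        have : c * (a * b) = c * (b * a) := by
          calc c * (a * b) = (c * a) * b := by group
            _ = a * (c * b) := by rw [← hca]; group
            _ = c * b * a := h
            _ = c * (b * a) := by group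
        exact mul_left_cancel this)
      have := M.mul_mem h3 (M.inv_mem h1)
      rwa [mul_inv_cancel_right] at this
    · exact key c hc hca

end Cfsg.Agent.Lib.Helper60.X23
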